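import Cfsg.Agent.H614.AltBlk
import Cfsg.Agent.H795.Spin.CenterLe

/-!
# The end of S4578 (helper795, task FIN)

`concl_of_w`: the statement about the heights of a block of a group `H` which acts on `n` points with kernel of order
prime to `p`, from `d(χ) ≥ w` on the block and `#supp ≤ p w` on the defect group.
-/

set_option autoImplicit false

namespace Cfsg.Agent.H795.Spin

open Finset Cfsg Cfsg.Agent.H614

/-- FIN -/
theorem concl_of_w {n p : ℕ} [Fact p.Prime] (hp : p ≠ 2) {H : Type*} [Group H] [Finite H]
    (f : H →* Equiv.Perm (Fin n)) (hker : ¬ p ∣ Nat.card f.ker)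
    {M : Ideal AlgInt} (hM : IsPModular p M) {B : Set (IrrCharacter H)} (hB : IsPBlock M B)
    {D : Subgroup H} (hD : IsDefectGroup p M B D) {w : ℕ}
    (h1 : ∀ χ ∈ B, (charDegree (χ : H → ℂ)).factorization p + w ≤ (Nat.card H).factorization p)
    (h2 : ∀ y ∈ D, #(f y).support ≤ p * w) {χ : IrrCharacter H} (hχ : χ ∈ B) :
    blockHeight p B (χ : H → ℂ) ≤ ((Subgroup.center D).index).factorization p ∧
      (blockHeight p B (χ : H → ℂ) = ((Subgroup.center D).index).factorization p ↔
        IsMulCommutative D) := by
  classical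
  have hpp : p.Prime := Fact.out
  let _ : Fintype H := Fintype.ofFinite H
  have hDp : IsPGroup p D := Blocks.Basic.isPGroup_of_isDefectGroup hD
  have hcardD := S0908.result p M hM B hB D hD
  -- the restriction of `f` to `D` is injective
  let r : D →* Equiv.Perm (Fin n) := f.comp D.subtype
  have hinj : Function.Injective r := by
    rw [← MonoidHom.ker_eq_bot_iff, ← Subgroup.card_eq_one]
    have ha : Nat.card r.ker ∣ Nat.card f.ker := by
      have hb : r.ker.map D.subtype ≤ f.ker := by
        rintro _ ⟨x, hx, rfl⟩
        exact hx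
      have hc := Subgroup.card_dvd_of_le hb
      rwa [Subgroup.card_map_of_injective D.subtype_injective] at hc
    obtain ⟨k, hk⟩ := (hDp.to_subgroup r.ker).exists_card_eq
    rw [hk]
    rcases Nat.eq_zero_or_pos k with rfl | hk0
    · exact pow_zero p
    · exact absurd ((dvd_pow_self p hk0.ne').trans (hk ▸ ha)) hker
  let e : D ≃* r.range := MonoidHom.ofInjective hinj
  have hRp : IsPGroup p r.range := hDp.of_equiv e
  obtain ⟨c, hc⟩ := (hDp.to_subgroup (Subgroup.center D)).exists_card_eq
  have hc' : Nat.card (Subgroup.center r.range) = p ^ c := by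
    rw [← hc]
    exact (Nat.card_congr (Subgroup.centerCongr e).toEquiv).symm
  have hsup : ∀ z ∈ r.range, #z.support ≤ p * w := by
    rintro _ ⟨y, rfl⟩
    exact h2 y y.2
  obtain ⟨hcw, hcomm⟩ := center_le hp hRp hsup hc'
  have hcomm' : c = w → IsMulCommutative D := fun h => by
    have := hcomm h
    refine ⟨⟨fun a b => e.injective ?_⟩⟩
    rw [map_mul, map_mul]
    exact this.is_comm.comm _ _
  -- the index
  have hidx : Nat.card (Subgroup.center D) * (Subgroup.center D).index = Nat.card D :=
    Subgroup.card_mul_index _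
  have hidx' : c + (Subgroup.center D).index.factorization p = blockDefect p B := by
    have hne : (Subgroup.center D).index ≠ 0 := Subgroup.index_ne_zero_of_finite
    have h3 := congrArg (fun m => m.factorization p) hidx
    rw [Nat.factorization_mul Nat.card_pos.ne' hne, Finsupp.add_apply, hc, hcardD,
      hpp.factorization_pow, hpp.factorization_pow, Finsupp.single_eq_same, Finsupp.single_eq_same] at h3
    exact h3
  -- the minimum
  have h3 : ((fun χ : IrrCharacter H =>
      (charDegree (χ : H → ℂ)).factorization p) '' B).Nonempty := ⟨_, χ, hχ, rfl⟩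
  obtain ⟨φ, hφ, hφ'⟩ := Nat.sInf_mem h3
  have h5 : sInf ((fun χ : IrrCharacter H => (charDegree (χ : H → ℂ)).factorization p) '' B) ≤
      (charDegree (χ : H → ℂ)).factorization p := Nat.sInf_le ⟨χ, hχ, rfl⟩
  have h6 := h1 χ hχ
  have hle : blockHeight p B (χ : H → ℂ) + w ≤ blockDefect p B := by
    unfold blockHeight blockDefect
    omega
  refine ⟨by omega, fun h => hcomm' (by omega), fun h => ?_⟩
  have hone : (Subgroup.center D).index = 1 := by
    rw [Subgroup.index_eq_one, eq_top_iff]
    intro x _
    rw [Subgroup.mem_center_iff]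
    intro y
    exact h.is_comm.comm _ _
  rw [hone, Nat.factorization_one] at hidx' ⊢
  simp only [Finsupp.coe_zero, Pi.zero_apply] at hidx' ⊢
  omega

end Cfsg.Agent.H795.Spin
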